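import Mathlib
import Cfsg.Agent.H46.J3Out
import Cfsg.Agent.H46.J3Lines1

/-!
# The third Janko group: transitivity on isotropic lines
-/

set_option autoImplicit false
set_option maxRecDepth 1000000

namespace Cfsg.Agent.H46.J3

open Cfsg.Agent.H42 Cfsg.Agent.H46 Cfsg.Spor Subgroup
open scoped MatrixGroups Matrix Pointwise

theorem chk_e1 : canonB 4 4 (9 * 1) 0x1001000 = true ∧
    ∀ z : F9, lane 4 0x1001000 (e9 z) = if z = (1, 0) ∨ z = (2, 0) then 1 else 0 := by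
  decide +kernel

variable {F : Type*} [Field F] {ω : F} (hF : IsF4 ω)
include hF

theorem isotropic_transitive (v w : F9 → F) (hv : v ≠ 0) (hw : w ≠ 0) (h1 : ∑ z, v z ^ 3 = 0)
    (h2 : ∑ z, w z ^ 3 = 0) :
    ∃ g ∈ threeJ3 F ω, ∃ c : F, c ≠ 0 ∧ (g : Matrix F9 F9 F) *ᵥ v = c • w := by
  classical
  have := finite_GL hF
  have := hF.finite
  let S : Set (F9 → F) := {v | ∑ z, v z ^ 3 = 0} \ {0}
  have c1 : S.ncard = 130815 := by
    have h := card_isotropic hF F9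
    rw [Set.ncard_sdiff_singleton_of_mem (by simp)]
    have e : Fintype.card F9 = 9 := rfl
    rw [e] at h
    omega
  have c2 := three_mul_ncard_lines_le hF S (fun h => h.2 rfl) fun u hu v hv => by
    refine ⟨?_, fun h => hv.2 ((smul_eq_zero.mp h).resolve_left hu)⟩
    have : ∑ z, v z ^ 3 = 0 := hv.1
    show ∑ z, (u * v z) ^ 3 = 0
    simp only [mul_pow, ← Finset.mul_sum, this, mul_zero]
  let v0 : F9 → F := decV (phi4 ω) 4 e9 0x1001000
  have hv0 : ∀ z, v0 z = if z = (1, 0) ∨ z = (2, 0) then 1 else 0 := fun z => by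
    simp only [v0, decV, chk_e1.2]
    split_ifs
    · exact phi4_one ω
    · exact phi4_zero ω
  have m0 : v0 ∈ S := by
    refine ⟨?_, fun h => ?_⟩
    · show ∑ z, v0 z ^ 3 = 0
      have : ∀ z, v0 z ^ 3 = if z ∈ ({(1, 0), (2, 0)} : Finset F9) then 1 else 0 := fun z => by
        rw [hv0]; simp only [Finset.mem_insert, Finset.mem_singleton]; split_ifs <;> simp
      simp only [this, Finset.sum_ite_mem, Finset.univ_inter, Finset.sum_const]
      rw [Finset.card_pair (by decide), two_smul, ← hF.two]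
      norm_num
    · have := hv0 (1, 0)
      rw [Set.mem_singleton_iff.mp h] at this
      simp at this
  have P0 : (QL hF).P 0x1001000 (F ∙ v0) := ⟨canon_of_canonB chk_e1.1, rfl⟩
  have c3 := (QL hF).le_orbit (by norm_num) (movesL hF) P0 (fun x => x) chkL1
  have hsub : MulAction.orbit (threeJ3 F ω) (F ∙ v0) ⊆ (fun v => F ∙ v) '' S := by
    rintro _ ⟨g, rfl⟩
    refine ⟨((g : GL F9 F) : Matrix F9 F9 F) *ᵥ v0, ⟨?_, fun h => m0.2 ?_⟩,
      (smul_span_singleton _ _).symm⟩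
    · have k := le_unitary hF g.2 v0 v0
      have k0 : ∑ z, v0 z ^ 3 = 0 := m0.1
      simp only [← pow_succ'] at k
      exact k.trans k0
    · have h : (g : GL F9 F) • v0 = 0 := h
      exact (smul_eq_zero_iff_eq _).mp h
  have heq := Set.eq_of_subset_of_ncard_le hsub (by omega) (Set.toFinite _)
  obtain ⟨g1, hg1⟩ : (F ∙ v) ∈ MulAction.orbit (threeJ3 F ω) (F ∙ v0) := heq ▸ ⟨v, ⟨h1, hv⟩, rfl⟩
  obtain ⟨g2, hg2⟩ : (F ∙ w) ∈ MulAction.orbit (threeJ3 F ω) (F ∙ v0) := heq ▸ ⟨w, ⟨h2, hw⟩, rfl⟩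
  have e : (g2 * g1⁻¹) • (F ∙ v) = F ∙ w := by
    have hg1 : g1 • (F ∙ v0) = F ∙ v := hg1
    have hg2 : g2 • (F ∙ v0) = F ∙ w := hg2
    rw [mul_smul, ← hg1, inv_smul_smul, hg2]
  have e' := (smul_span_singleton ((g2 * g1⁻¹ : threeJ3 F ω) : GL F9 F) v).symm.trans e
  obtain ⟨c, hc⟩ := Submodule.span_singleton_eq_span_singleton.mp e'.symm
  exact ⟨_, (g2 * g1⁻¹).2, c, c.ne_zero, hc.symm⟩

end Cfsg.Agent.H46.J3
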